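import Mathlib

/-!
Automorphisms of odd prime order of an elementary abelian group of order `2 ^ 11`.
-/

set_option autoImplicit false
set_option linter.unusedSectionVars false
set_option linter.style.haveILetI false

namespace Cfsg.Agent.H87.Fi23A

variable {A : Type*} [Group A] [Finite A]

/-- The elements fixed by an automorphism. -/
def fixedOf (φ : MulAut A) : Subgroup A where
  carrier := {a | φ a = a}
  one_mem' := map_one φ
  mul_mem' {a b} ha hb := by
    show φ (a * b) = a * b
    rw [map_mul]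
    exact congrArg₂ (· * ·) ha hb
  inv_mem' {a} ha := by
    show φ a⁻¹ = a⁻¹
    rw [map_inv]
    exact congrArg _ ha

lemma zpowers_isPGroup {p : ℕ} [Fact p.Prime] {φ : MulAut A} (hφ : orderOf φ = p) :
    IsPGroup p ↥(Subgroup.zpowers φ) :=
  IsPGroup.of_card (n := 1) (by rw [Nat.card_zpowers, hφ, pow_one])

/-- An automorphism fixing an element fixes it under all its powers. -/
lemma zpowers_fix {φ : MulAut A} {a : A} (h : φ a = a) (g : ↥(Subgroup.zpowers φ)) :
    (g : MulAut A) a = a := by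
  have : Subgroup.zpowers φ ≤ MulAction.stabilizer (MulAut A) a :=
    Subgroup.zpowers_le.2 (MulAction.mem_stabilizer_iff.2 h)
  exact MulAction.mem_stabilizer_iff.1 (this g.2)

/-- The number of fixed elements is congruent to the order. -/
theorem card_fixedOf_modEq {p : ℕ} [Fact p.Prime] {φ : MulAut A} (hφ : orderOf φ = p) :
    Nat.card A ≡ Nat.card ↥(fixedOf φ) [MOD p] := by
  have h := (zpowers_isPGroup hφ).card_modEq_card_fixedPoints A
  have e : Nat.card (MulAction.fixedPoints ↥(Subgroup.zpowers φ) A) = Nat.card ↥(fixedOf φ) :=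
    Nat.card_congr
      { toFun := fun a => ⟨a.1, a.2 ⟨φ, Subgroup.mem_zpowers φ⟩⟩
        invFun := fun a => ⟨a.1, fun g => zpowers_fix a.2 g⟩
        left_inv := fun _ => rfl
        right_inv := fun _ => rfl }
  rwa [e] at h

variable (hA : Nat.card A = 2 ^ 11)
include hA

/-- An odd prime order divides `2 ^ k - 1` for the codimension `k` of the fixed space. -/
theorem exists_codim {p : ℕ} [Fact p.Prime] (hp : p ≠ 2) {φ : MulAut A} (hφ : orderOf φ = p) :
    ∃ m < 11, Nat.card ↥(fixedOf φ) = 2 ^ m ∧ p ∣ 2 ^ (11 - m) - 1 := by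
  have hd : Nat.card ↥(fixedOf φ) ∣ 2 ^ 11 := hA ▸ Subgroup.card_subgroup_dvd_card _
  obtain ⟨m, hm, he⟩ := (Nat.dvd_prime_pow Nat.prime_two).1 hd
  have hmlt : m < 11 := by
    refine lt_of_le_of_ne hm fun h11 => ?_
    have htop : fixedOf φ = ⊤ := Subgroup.eq_top_of_card_eq _ (by rw [he, h11, hA])
    have h1 : φ = 1 := MulEquiv.ext fun a => by
      have : a ∈ fixedOf φ := htop ▸ Subgroup.mem_top a
      exact this
    have hpp : p.Prime := Fact.out
    rw [h1, orderOf_one] at hφ
    exact hpp.ne_one hφ.symm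
  refine ⟨m, hmlt, he, ?_⟩
  have h := card_fixedOf_modEq hφ
  rw [hA, he] at h
  have h2 : p ∣ 2 ^ 11 - 2 ^ m :=
    (Nat.modEq_iff_dvd' (Nat.pow_le_pow_right (by norm_num) hmlt.le)).1 h.symm
  have h3 : 2 ^ 11 - 2 ^ m = 2 ^ m * (2 ^ (11 - m) - 1) := by
    rw [Nat.mul_sub_one, ← pow_add, Nat.add_sub_of_le hmlt.le]
  rw [h3] at h2
  have hpp : p.Prime := Fact.out
  refine ((Nat.Coprime.pow_right m ?_).dvd_of_dvd_mul_left h2)
  exact (Nat.coprime_primes hpp Nat.prime_two).2 hp

/-- A group of automorphisms permuting `Δ` transitively has no prime in `|Δ|` of high order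
modulo two. -/
theorem no_bad_prime {R : Subgroup (MulAut A)} {p : ℕ} (hpp : p.Prime) (hp2 : p ≠ 2)
    (hbad : ∀ k, 1 ≤ k → k ≤ 11 → ¬ p ∣ 2 ^ k - 1) : ¬ p ∣ Nat.card ↥R := by
  intro hd
  haveI : Fact p.Prime := ⟨hpp⟩
  obtain ⟨r, hr⟩ := exists_prime_orderOf_dvd_card' p hd
  obtain ⟨m, hm, -, hk⟩ := exists_codim hA hp2 (φ := (r : MulAut A))
    (by rw [Subgroup.orderOf_coe]; exact hr)
  exact hbad (11 - m) (by omega) (by omega) hk

/-- No automorphism of order 127 preserves a generating set of 254 elements. -/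
theorem no_order_127 (hc : ∀ a b : A, Commute a b) (hsq : ∀ a : A, a * a = 1) {φ : MulAut A}
    (hφ : orderOf φ = 127) {Δ : Set A} (hinv : ∀ x ∈ Δ, ∀ k : ↥(Subgroup.zpowers φ),
      (k : MulAut A) x ∈ Δ) (hcard : Δ.ncard = 254) (hgen : Subgroup.closure Δ = ⊤) : False := by
  classical
  haveI : Fact (Nat.Prime 127) := ⟨by norm_num⟩
  letI : CommGroup A := { ‹Group A› with mul_comm := fun a b => (hc a b).eq }
  obtain ⟨m, hm, hF, hdiv⟩ := exists_codim hA (by norm_num) hφ
  have hm4 : m = 4 := by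
    interval_cases m <;> first | rfl | norm_num at hdiv
  subst hm4
  -- the product over an orbit of the powers
  have hpow : φ ^ 127 = 1 := hφ ▸ pow_orderOf_eq_one φ
  let ν : A →* A :=
    { toFun := fun a => ∏ k ∈ Finset.range 127, (φ ^ k) a
      map_one' := by simp
      map_mul' := fun a b => by simp [Finset.prod_mul_distrib] }
  have hνφ : ∀ a, ν (φ a) = ν a := fun a => by
    have e1 := Finset.prod_range_succ (fun k => (φ ^ k) a) 127
    have e2 := Finset.prod_range_succ' (fun k => (φ ^ k) a) 127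
    rw [e1, hpow] at e2
    have e3 : ∀ k, (φ ^ (k + 1)) a = (φ ^ k) (φ a) := fun k => by rw [pow_succ]; rfl
    simp only [e3, pow_zero] at e2
    exact (mul_right_cancel e2).symm
  have hνF : ∀ f ∈ fixedOf φ, ν f = f := by
    intro f hf
    have e : ∀ k : ℕ, (φ ^ k) f = f := by
      intro k
      induction k with
      | zero => rfl
      | succ k ih =>
        rw [pow_succ, MulAut.mul_apply, show φ f = f from hf, ih]
    show ∏ k ∈ Finset.range 127, (φ ^ k) f = f
    simp only [e, Finset.prod_const, Finset.card_range]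
    rw [show 127 = 2 * 63 + 1 from rfl, pow_succ, pow_mul, pow_two, hsq, one_pow, one_mul]
  -- no member of `Δ` is fixed
  let Δs : SubMulAction ↥(Subgroup.zpowers φ) A := ⟨Δ, fun k x hx => hinv x hx k⟩
  have hΔc : Nat.card ↥Δs = 254 := by rw [← hcard, ← Nat.card_coe_set_eq]; rfl
  have hfix : ∀ x ∈ Δ, φ x ≠ x := by
    intro x hx hxx
    have h := (zpowers_isPGroup hφ).card_modEq_card_fixedPoints ↥Δs
    rw [hΔc] at h
    have hle : Nat.card (MulAction.fixedPoints ↥(Subgroup.zpowers φ) ↥Δs) ≤ 16 := by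
      have h16 : Nat.card ↥(fixedOf φ) = 16 := hF
      rw [← h16]
      refine Nat.card_le_card_of_injective
        (fun y => ⟨((y : ↥Δs) : A), congrArg Subtype.val (y.2 ⟨φ, Subgroup.mem_zpowers φ⟩)⟩) ?_
      intro y y' h
      exact Subtype.ext (Subtype.ext (congrArg Subtype.val h :))
    have hpos : 0 < Nat.card (MulAction.fixedPoints ↥(Subgroup.zpowers φ) ↥Δs) := by
      haveI : Nonempty (MulAction.fixedPoints ↥(Subgroup.zpowers φ) ↥Δs) :=
        ⟨⟨⟨x, hx⟩, fun k => Subtype.ext (zpowers_fix hxx k)⟩⟩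
      exact Nat.card_pos
    rw [Nat.ModEq] at h
    omega
  -- each value on `Δ` is taken 127 times
  have hbig : ∀ y ∈ ν '' Δ, 127 ≤ {x | x ∈ Δ ∧ ν x = y}.ncard := by
    rintro _ ⟨x, hx, rfl⟩
    have horb : MulAction.orbit ↥(Subgroup.zpowers φ) x ⊆ {x' | x' ∈ Δ ∧ ν x' = ν x} := by
      rintro _ ⟨k, rfl⟩
      refine ⟨hinv x hx k, ?_⟩
      have : ∀ n : ℕ, ν ((φ ^ n) x) = ν x := by
        intro n
        induction n with
        | zero => rfl
        | succ n ih => rw [pow_succ', MulAut.mul_apply, hνφ, ih]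
      obtain ⟨z, hz⟩ := Subgroup.mem_zpowers_iff.1 k.2
      obtain ⟨n, hn⟩ : ∃ n : ℕ, φ ^ n = (k : MulAut A) :=
        ⟨(z % 127).toNat, by
          rw [← zpow_natCast, Int.toNat_of_nonneg (Int.emod_nonneg z (by norm_num)), ← hz,
            show (127 : ℤ) = (orderOf φ : ℕ) by rw [hφ]; rfl, zpow_mod_orderOf]⟩
      show ν ((k : MulAut A) x) = ν x
      rw [← hn]
      exact this n
    obtain ⟨n, hn⟩ := (zpowers_isPGroup hφ).card_orbit x
    have hn0 : n ≠ 0 := by
      rintro rfl
      rw [pow_zero, Nat.card_coe_set_eq] at hn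
      obtain ⟨w, hw⟩ := Set.ncard_eq_one.1 hn
      have h1 : φ x ∈ MulAction.orbit ↥(Subgroup.zpowers φ) x :=
        ⟨⟨φ, Subgroup.mem_zpowers φ⟩, rfl⟩
      have h0 := MulAction.mem_orbit_self (M := ↥(Subgroup.zpowers φ)) x
      rw [hw] at h1 h0
      exact hfix x hx (h1.trans h0.symm)
    refine le_trans ?_ (Set.ncard_le_ncard horb (Set.toFinite _))
    rw [← Nat.card_coe_set_eq, hn]
    exact Nat.le_self_pow hn0 127
  have hfew : (ν '' Δ).ncard ≤ 2 := by
    obtain ⟨t, ht⟩ : ∃ t : Finset A, (t : Set A) = Δ := ⟨(Set.toFinite Δ).toFinset, by simp⟩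
    subst ht
    have hmul := Finset.mul_card_image_le_card (f := ν) (s := t) 127 fun y hy => by
      have := hbig y (by simpa using hy)
      rw [← Set.ncard_coe_finset]
      refine this.trans (le_of_eq (congrArg Set.ncard ?_))
      ext x
      simp
    rw [← Set.ncard_coe_finset, Finset.coe_image, ← Set.ncard_coe_finset t, hcard] at hmul
    omega
  -- so the fixed space is too small
  have hle : fixedOf φ ≤ Subgroup.closure (ν '' Δ) := fun f hf => by
    rw [← MonoidHom.map_closure, hgen]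
    exact ⟨f, Subgroup.mem_top f, hνF f hf⟩
  have h4 : Nat.card ↥(Subgroup.closure (ν '' Δ)) ≤ 4 := by
    obtain ⟨u, v, huv⟩ : ∃ u v : A, ν '' Δ ⊆ {u, v} := by
      rcases Nat.lt_or_ge (ν '' Δ).ncard 2 with h | h
      · rcases (Set.eq_empty_or_nonempty (ν '' Δ)) with he | ⟨u, hu⟩
        · exact ⟨1, 1, by rw [he]; exact Set.empty_subset _⟩
        · obtain ⟨w, hw⟩ := Set.ncard_eq_one.1 (le_antisymm (by omega)
            ((Set.ncard_pos (Set.toFinite _)).2 ⟨u, hu⟩))
          exact ⟨w, w, by rw [hw]; simp⟩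
      · obtain ⟨u, v, -, huv⟩ := Set.ncard_eq_two.1 (le_antisymm hfew h)
        exact ⟨u, v, huv.le⟩
    let H : Subgroup A :=
      { carrier := {1, u, v, u * v}
        one_mem' := by simp
        inv_mem' := fun {g} hg => by rwa [inv_eq_of_mul_eq_one_right (hsq g)]
        mul_mem' := fun {g g'} hg hg' => by
          simp only [Set.mem_insert_iff, Set.mem_singleton_iff] at hg hg' ⊢
          rcases hg with rfl | rfl | rfl | rfl <;> rcases hg' with rfl | rfl | rfl | rfl <;>
            simp [hsq, mul_comm, mul_left_comm] }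
    have hH : Subgroup.closure (ν '' Δ) ≤ H := (Subgroup.closure_le _).2 fun g hg => by
      rcases huv hg with h | h
      · exact Or.inr (Or.inl h)
      · exact Or.inr (Or.inr (Or.inl h))
    refine (Subgroup.card_le_of_le hH).trans ?_
    show Nat.card ↥({1, u, v, u * v} : Set A) ≤ 4
    rw [Nat.card_coe_set_eq]
    exact (Set.ncard_insert_le _ _).trans (Nat.succ_le_succ ((Set.ncard_insert_le _ _).trans
      (Nat.succ_le_succ ((Set.ncard_insert_le _ _).trans (by simp)))))
  have := Subgroup.card_le_of_le hle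
  rw [hF] at this
  omega

end Cfsg.Agent.H87.Fi23A
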