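import Cfsg.Agent.H87.Fi23A.Auto

/-!
An orbit of a group of automorphisms of an elementary abelian group of order `2 ^ 11` whose point
stabiliser has the orbits of the Mathieu group of degree 22 has 23 elements.
-/

set_option autoImplicit false
set_option linter.unusedSectionVars false
set_option linter.style.haveILetI false

namespace Cfsg.Agent.H87.Fi23A

variable {A : Type*} [Group A]

/-- The elements outside the four small orbits. -/
def rest (z : A) (L1 L2 P1 P2 : Set A) : Set A :=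
  {x | x ≠ 1 ∧ x ≠ z ∧ x ∉ L1 ∧ x ∉ L2 ∧ x ∉ P1 ∧ x ∉ P2}

/-- One orbit of the stabiliser of `z`. -/
def Trans (R : Subgroup (MulAut A)) (z : A) (S : Set A) : Prop :=
  ∀ x ∈ S, ∀ y ∈ S, ∃ r ∈ R, r z = z ∧ r x = y

/-- The orbit of `z`. -/
def orb (R : Subgroup (MulAut A)) (z : A) : Set A := {x | ∃ r ∈ R, r z = x}

/-- The orbits of the stabiliser of `z`. -/
structure Setup (R : Subgroup (MulAut A)) (z : A) (L1 L2 P1 P2 : Set A) : Prop where
  card : Nat.card A = 2 ^ 11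
  comm : ∀ x y : A, Commute x y
  sq : ∀ x : A, x * x = 1
  z_ne : z ≠ 1
  z_out : z ∉ L1 ∧ z ∉ L2 ∧ z ∉ P1 ∧ z ∉ P2
  one_out : (1 : A) ∉ L1 ∧ (1 : A) ∉ L2 ∧ (1 : A) ∉ P1 ∧ (1 : A) ∉ P2
  stab : ∀ r ∈ R, r z = z → ∀ x ∈ L1, r x ∈ L1
  tL1 : Trans R z L1
  tL2 : Trans R z L2
  tP1 : Trans R z P1
  tP2 : Trans R z P2
  tT : Trans R z (rest z L1 L2 P1 P2)
  mem_L2 : ∀ x, x ∈ L2 ↔ z * x ∈ L1
  mem_P1 : ∀ x, x ∈ P1 ↔ ∃ a ∈ L1, ∃ b ∈ L1, a ≠ b ∧ x = a * b
  mem_P2 : ∀ x, x ∈ P2 ↔ z * x ∈ P1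
  dLL : Disjoint L1 L2
  d11 : Disjoint L1 P1
  d12 : Disjoint L1 P2
  d21 : Disjoint L2 P1
  d22 : Disjoint L2 P2
  dPP : Disjoint P1 P2
  card_L1 : L1.ncard = 22
  card_P1 : P1.ncard = 231
  gen1 : Subgroup.closure L1 = ⊤
  gen2 : Subgroup.closure L2 = ⊤
  triple : ∀ a ∈ L1, ∀ b ∈ L1, ∀ c ∈ L1, a ≠ b → a ≠ c → b ≠ c →
    a * b * c ∉ L1 ∧ a * b * c ∉ L2 ∧ a * b * c ∉ P2 ∧ a * b * c ≠ z

namespace Setup

variable {R : Subgroup (MulAut A)} {z : A} {L1 L2 P1 P2 : Set A} (h : Setup R z L1 L2 P1 P2)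
include h

lemma zz : z * z = 1 := h.sq z

lemma cancel (x : A) : z * (z * x) = x := by rw [← mul_assoc, h.zz, one_mul]

lemma stab_iff {r : MulAut A} (hr : r ∈ R) (hz : r z = z) (x : A) : r x ∈ L1 ↔ x ∈ L1 := by
  refine ⟨fun hx => ?_, h.stab r hr hz x⟩
  have hz' : r⁻¹ z = z := by
    conv_lhs => rw [← hz]
    exact r.symm_apply_apply z
  have := h.stab r⁻¹ (inv_mem hr) hz' _ hx
  rwa [show r⁻¹ (r x) = x from r.symm_apply_apply x] at this

lemma stab_L2 {r : MulAut A} (hr : r ∈ R) (hz : r z = z) (x : A) : r x ∈ L2 ↔ x ∈ L2 := by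
  rw [h.mem_L2, h.mem_L2, show z * r x = r (z * x) by rw [map_mul, hz]]
  exact h.stab_iff hr hz _

lemma stab_P1 {r : MulAut A} (hr : r ∈ R) (hz : r z = z) (x : A) : r x ∈ P1 ↔ x ∈ P1 := by
  rw [h.mem_P1, h.mem_P1]
  constructor
  · rintro ⟨a, ha, b, hb, hne, e⟩
    refine ⟨r⁻¹ a, (h.stab_iff hr hz _).1 (by rw [show r (r⁻¹ a) = a from r.apply_symm_apply a]; exact ha),
      r⁻¹ b, (h.stab_iff hr hz _).1 (by rw [show r (r⁻¹ b) = b from r.apply_symm_apply b]; exact hb),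
      fun e' => hne (r⁻¹.injective e'), ?_⟩
    rw [← map_mul, ← e]
    exact (r.symm_apply_apply x).symm
  · rintro ⟨a, ha, b, hb, hne, rfl⟩
    exact ⟨r a, (h.stab_iff hr hz a).2 ha, r b, (h.stab_iff hr hz b).2 hb,
      fun e => hne (r.injective e), map_mul r a b⟩

lemma stab_P2 {r : MulAut A} (hr : r ∈ R) (hz : r z = z) (x : A) : r x ∈ P2 ↔ x ∈ P2 := by
  rw [h.mem_P2, h.mem_P2, show z * r x = r (z * x) by rw [map_mul, hz]]
  exact h.stab_P1 hr hz _

lemma stab_T {r : MulAut A} (hr : r ∈ R) (hz : r z = z) (x : A) :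
    r x ∈ rest z L1 L2 P1 P2 ↔ x ∈ rest z L1 L2 P1 P2 := by
  simp only [rest, Set.mem_ofPred_eq, ne_eq, h.stab_iff hr hz, h.stab_L2 hr hz, h.stab_P1 hr hz,
    h.stab_P2 hr hz, EmbeddingLike.map_eq_one_iff]
  have : r x = z ↔ x = z := ⟨fun e => r.injective (e.trans hz.symm), fun e => e ▸ hz⟩
  rw [this]

lemma card_L2 : L2.ncard = 22 := by
  have e : L2 = (fun x => z * x) '' L1 := by
    ext x
    rw [h.mem_L2]
    refine ⟨fun hx => ⟨_, hx, h.cancel x⟩, ?_⟩
    rintro ⟨y, hy, rfl⟩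
    rwa [h.cancel]
  rw [e, Set.ncard_image_of_injective _ (mul_right_injective z), h.card_L1]

lemma card_P2 : P2.ncard = 231 := by
  have e : P2 = (fun x => z * x) '' P1 := by
    ext x
    rw [h.mem_P2]
    refine ⟨fun hx => ⟨_, hx, h.cancel x⟩, ?_⟩
    rintro ⟨y, hy, rfl⟩
    rwa [h.cancel]
  rw [e, Set.ncard_image_of_injective _ (mul_right_injective z), h.card_P1]

lemma z_mem : z ∈ orb R z := ⟨1, one_mem R, rfl⟩

lemma orb_map {r : MulAut A} (hr : r ∈ R) (x : A) : r x ∈ orb R z ↔ x ∈ orb R z := by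
  constructor
  · rintro ⟨s, hs, e⟩
    exact ⟨r⁻¹ * s, mul_mem (inv_mem hr) hs, by
      rw [MulAut.mul_apply, e]; exact r.symm_apply_apply x⟩
  · rintro ⟨s, hs, rfl⟩
    exact ⟨r * s, mul_mem hr hs, rfl⟩

lemma one_notMem : (1 : A) ∉ orb R z := by
  rintro ⟨r, -, e⟩
  exact h.z_ne (r.injective (e.trans (map_one r).symm))

lemma dichotomy {S : Set A} (hS : Trans R z S) : S ⊆ orb R z ∨ ∀ x ∈ S, x ∉ orb R z := by
  by_cases he : ∀ x ∈ S, x ∉ orb R z
  · exact Or.inr he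
  push Not at he
  obtain ⟨x, hx, hxo⟩ := he
  refine Or.inl fun y hy => ?_
  obtain ⟨r, hr, -, rfl⟩ := hS x hx y hy
  exact (h.orb_map hr x).2 hxo

/-- Moving a member of the orbit back to `z`. -/
lemma back {x : A} (hx : x ∈ orb R z) : ∃ r ∈ R, r z = x ∧ r⁻¹ x = z := by
  obtain ⟨r, hr, rfl⟩ := hx
  exact ⟨r, hr, rfl, r.symm_apply_apply z⟩

lemma apply_inv (r : MulAut A) (x : A) : r (r⁻¹ x) = x := r.apply_symm_apply x

section cases

/-- Both classes of members only: impossible. -/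
theorem only_members (i1 : L1 ⊆ orb R z) (i2 : L2 ⊆ orb R z) (j1 : ∀ x ∈ P1, x ∉ orb R z)
    (hother : ∀ x ∈ orb R z, x = z ∨ x ∈ L1 ∨ x ∈ L2) : False := by
  have hline : ∀ x ∈ orb R z, ∀ y ∈ orb R z, x ≠ y → x * y ∈ orb R z := by
    intro x hx y hy hne
    obtain ⟨r, hr, hrz, hrx⟩ := h.back hx
    have hs : r⁻¹ y ∈ orb R z := (h.orb_map (inv_mem hr) y).2 hy
    have hsz : r⁻¹ y ≠ z := fun e => hne (by rw [← hrz, ← e, h.apply_inv])
    have : z * r⁻¹ y ∈ orb R z := by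
      rcases hother _ hs with e | e | e
      · exact absurd e hsz
      · exact i2 ((h.mem_L2 _).2 (by rwa [h.cancel]))
      · exact i1 ((h.mem_L2 _).1 e)
    have h2 := (h.orb_map hr _).2 this
    rwa [map_mul, hrz, h.apply_inv] at h2
  obtain ⟨a, b, ha, hb, hne⟩ :=
    (Set.one_lt_ncard_iff (Set.finite_of_ncard_ne_zero (by rw [h.card_L1]; norm_num))).1
      (show 1 < L1.ncard by rw [h.card_L1]; norm_num)
  exact j1 _ ((h.mem_P1 _).2 ⟨a, ha, b, hb, hne, rfl⟩) (hline a (i1 ha) b (i1 hb) hne)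

/-- Everything but one class of members: impossible. -/
theorem all_but_members {W Le : Set A} (hgen : Subgroup.closure W = ⊤)
    (hW : ∀ w ∈ W, z * w ∈ Le) (hLe : Le ⊆ orb R z) (hout : ∀ x ∈ W, x ∉ orb R z)
    (hall : ∀ x, x ≠ 1 → x ∉ orb R z → x ∈ W) (hone : (1 : A) ∉ W) : False := by
  have key : ∀ y ∈ orb R z, ∀ w ∈ W, y * w ∈ orb R z := by
    intro y hy w hw
    obtain ⟨r, hr, hrz, -⟩ := h.back hy
    have hw' : r⁻¹ w ∈ W := by
      refine hall _ (fun e => hone ?_) fun e => hout w hw ((h.orb_map (inv_mem hr) w).1 e)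
      have : w = 1 := by rw [← h.apply_inv r w, e, map_one]
      exact this ▸ hw
    have h2 := (h.orb_map hr _).2 (hLe (hW _ hw'))
    rwa [map_mul, hrz, h.apply_inv] at h2
  have key' : ∀ g ∈ Subgroup.closure W, ∀ y ∈ orb R z, y * g ∈ orb R z := by
    intro g hg
    induction hg using Subgroup.closure_induction with
    | mem w hw => exact fun y hy => key y hy w hw
    | one => exact fun y hy => by rwa [mul_one]
    | mul a b _ _ iha ihb => exact fun y hy => by rw [← mul_assoc]; exact ihb _ (iha y hy)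
    | inv a _ iha => exact fun y hy => by rw [inv_eq_of_mul_eq_one_right (h.sq a)]; exact iha y hy
  refine h.one_notMem ?_
  have := key' z (hgen ▸ Subgroup.mem_top z) z h.z_mem
  rwa [h.zz] at this

/-- Members and the products of two in different classes: impossible. -/
theorem members_cross_pairs (i1 : L1 ⊆ orb R z) (i2 : L2 ⊆ orb R z)
    (j1 : ∀ x ∈ P1, x ∉ orb R z) (j2 : P2 ⊆ orb R z)
    (hother : ∀ x ∈ orb R z, x = z ∨ x ∈ L1 ∨ x ∈ L2 ∨ x ∈ P2) : False := by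
  -- a neighbour of `z` is a member
  have hnb : ∀ s ∈ orb R z, s ≠ z → z * s ∈ orb R z → s ∈ L1 ∨ s ∈ L2 := by
    intro s hs hsz hzs
    rcases hother s hs with e | e | e | e
    · exact absurd e hsz
    · exact Or.inl e
    · exact Or.inr e
    · exact absurd hzs (j1 _ ((h.mem_P2 s).1 e))
  have same1 : ∀ s t, s ∈ L1 → t ∈ L1 → s ≠ t → s * t ∉ orb R z := fun s t hs ht hne =>
    j1 _ ((h.mem_P1 _).2 ⟨s, hs, t, ht, hne, rfl⟩)
  have same2 : ∀ s t, s ∈ L2 → t ∈ L2 → s ≠ t → s * t ∉ orb R z := fun s t hs ht hne => by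
    refine j1 _ ((h.mem_P1 _).2 ⟨_, (h.mem_L2 s).1 hs, _, (h.mem_L2 t).1 ht,
      fun e => hne (mul_left_cancel e), ?_⟩)
    rw [(h.comm z s).eq, mul_assoc, ← mul_assoc z z, h.zz, one_mul]
  have cross : ∀ s t, s ∈ L1 → t ∈ L2 → s * t ∈ orb R z := fun s t hs ht => by
    have ht' := (h.mem_L2 t).1 ht
    by_cases e : s = z * t
    · rw [e, mul_assoc, h.sq, mul_one]; exact h.z_mem
    · refine j2 ((h.mem_P2 _).2 ((h.mem_P1 _).2 ⟨s, hs, _, ht', e, ?_⟩))
      rw [← mul_assoc, (h.comm z s).eq, mul_assoc]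
  obtain ⟨a, b, c, ha, hb, hc, hab, hac, hbc⟩ :=
    (Set.two_lt_ncard_iff (Set.finite_of_ncard_ne_zero (by rw [h.card_L1]; norm_num))).1
      (show 2 < L1.ncard by rw [h.card_L1]; norm_num)
  obtain ⟨r, hr, hrz, -⟩ := h.back (i1 ha)
  have hzb : z * b ∈ orb R z := i2 ((h.mem_L2 _).2 (by rwa [h.cancel]))
  have hzac : z * (a * c) ∈ orb R z :=
    j2 ((h.mem_P2 _).2 (by rw [h.cancel]; exact (h.mem_P1 _).2 ⟨a, ha, c, hc, hac, rfl⟩))
  have pull : ∀ y, y ∈ orb R z → y ≠ a → a * y ∈ orb R z → r⁻¹ y ∈ L1 ∨ r⁻¹ y ∈ L2 := by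
    intro y hy hne hay
    refine hnb _ ((h.orb_map (inv_mem hr) y).2 hy)
      (fun e => hne (by rw [← h.apply_inv r y, e, hrz])) ?_
    refine (h.orb_map hr _).1 ?_
    rwa [map_mul, hrz, h.apply_inv]
  have s1 := pull z h.z_mem (fun e => (h.z_out.1) (e ▸ ha)) (by
    rw [(h.comm a z).eq]; exact i2 ((h.mem_L2 _).2 (by rwa [h.cancel])))
  have s2 := pull (z * b) hzb (fun e => Set.disjoint_left.1 h.dLL ha
    ((h.mem_L2 a).2 (by rw [← e, h.cancel]; exact hb))) (by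
    rw [← mul_assoc, (h.comm a z).eq, mul_assoc]
    exact j2 ((h.mem_P2 _).2 (by rw [h.cancel]; exact (h.mem_P1 _).2 ⟨a, ha, b, hb, hab, rfl⟩)))
  have s3 := pull (z * (a * c)) hzac (fun e => Set.disjoint_left.1 h.d12 ha
    ((h.mem_P2 a).2 (by rw [← e, h.cancel]; exact (h.mem_P1 _).2 ⟨a, ha, c, hc, hac, rfl⟩))) (by
    rw [← mul_assoc, (h.comm a z).eq, mul_assoc, ← mul_assoc a a, h.sq, one_mul]
    exact i2 ((h.mem_L2 _).2 (by rwa [h.cancel])))
  have p12 : r⁻¹ z * r⁻¹ (z * b) ∈ orb R z := by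
    rw [← map_mul, h.cancel]; exact (h.orb_map (inv_mem hr) b).2 (i1 hb)
  have n12 : r⁻¹ z ≠ r⁻¹ (z * b) := fun e => h.one_out.1 (by
    have := r⁻¹.injective e
    rw [left_eq_mul] at this
    exact this ▸ hb)
  have p13 : r⁻¹ z * r⁻¹ (z * (a * c)) ∉ orb R z := by
    rw [← map_mul, h.cancel]
    exact fun e => j1 _ ((h.mem_P1 _).2 ⟨a, ha, c, hc, hac, rfl⟩) ((h.orb_map (inv_mem hr) _).1 e)
  have p23 : r⁻¹ (z * b) * r⁻¹ (z * (a * c)) ∉ orb R z := by
    rw [← map_mul, show z * b * (z * (a * c)) = a * b * c by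
      rw [(h.comm z b).eq, mul_assoc b z, h.cancel, ← mul_assoc, (h.comm b a).eq]]
    intro e
    obtain ⟨t1, t2, t3, t4⟩ := h.triple a ha b hb c hc hab hac hbc
    rcases hother _ ((h.orb_map (inv_mem hr) _).1 e) with e | e | e | e
    · exact t4 e
    · exact t1 e
    · exact t2 e
    · exact t3 e
  have sides : ∀ s t, (s ∈ L1 ∨ s ∈ L2) → (t ∈ L1 ∨ t ∈ L2) → s * t ∉ orb R z →
      (s ∈ L1 ↔ t ∈ L1) := by
    intro s t hs ht hn
    constructor
    · intro hs1
      exact ht.resolve_right fun ht2 => hn (cross s t hs1 ht2)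
    · intro ht1
      exact hs.resolve_right fun hs2 => hn (by rw [(h.comm s t).eq]; exact cross t s ht1 hs2)
  have h13 := sides _ _ s1 s3 p13
  have h23 := sides _ _ s2 s3 p23
  rcases s1 with e1 | e1
  · have e2 : r⁻¹ (z * b) ∈ L1 := h23.2 (h13.1 e1)
    exact same1 _ _ e1 e2 n12 p12
  · rcases s2 with e2 | e2
    · exact Set.disjoint_left.1 h.dLL (h13.2 (h23.1 e2)) e1
    · exact same2 _ _ e1 e2 n12 p12

/-- The first class seen from `x`. -/
def S1 (R : Subgroup (MulAut A)) (z : A) (L1 : Set A) (x y : A) : Prop :=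
  ∃ r ∈ R, r z = x ∧ r⁻¹ y ∈ L1

omit h in
lemma S1_map {L : Set A} {g : MulAut A} (hg : g ∈ R) {x y : A} (hxy : S1 R z L x y) :
    S1 R z L (g x) (g y) := by
  obtain ⟨r, hr, hrz, hy⟩ := hxy
  refine ⟨g * r, mul_mem hg hr, by rw [MulAut.mul_apply, hrz], ?_⟩
  rw [mul_inv_rev, MulAut.mul_apply, show g⁻¹ (g y) = y from g.symm_apply_apply y]
  exact hy

lemma S1_here {L : Set A} {s : A} (hs : s ∈ L) : S1 R z L z s :=
  ⟨1, one_mem R, rfl, by simpa using hs⟩

/-- The class seen from `x` does not depend on the element moving `z` to `x`. -/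
lemma S1_class {r : MulAut A} (hr : r ∈ R) {x y : A} (hrz : r z = x)
    (hy : S1 R z L1 x y) : r⁻¹ y ∈ L1 := by
  obtain ⟨s, hs, hsz, hsy⟩ := hy
  have := (h.stab_iff (mul_mem (inv_mem hr) hs) (by
    rw [MulAut.mul_apply, hsz, ← hrz]; exact r.symm_apply_apply z) (s⁻¹ y)).2 hsy
  rwa [MulAut.mul_apply, h.apply_inv] at this

lemma S2_class {r : MulAut A} (hr : r ∈ R) {x y : A} (hrz : r z = x)
    (hy : S1 R z L2 x y) : r⁻¹ y ∈ L2 := by
  obtain ⟨s, hs, hsz, hsy⟩ := hy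
  have := (h.stab_L2 (mul_mem (inv_mem hr) hs) (by
    rw [MulAut.mul_apply, hsz, ← hrz]; exact r.symm_apply_apply z) (s⁻¹ y)).2 hsy
  rwa [MulAut.mul_apply, h.apply_inv] at this

lemma S12 {x y : A} (h1 : S1 R z L1 x y) (h2 : S1 R z L2 x y) : False := by
  obtain ⟨r, hr, hrz, hy⟩ := h1
  exact Set.disjoint_left.1 h.dLL hy (h.S2_class hr hrz h2)

omit h in
/-- A symmetric pair makes a transitive class symmetric. -/
lemma S1_symm {L : Set A} (hL : Trans R z L) {x y : A} (hxy : S1 R z L x y)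
    (hyx : S1 R z L y x) {x' y' : A} (hxy' : S1 R z L x' y') : S1 R z L y' x' := by
  obtain ⟨r, hr, hrz, hy⟩ := hxy
  obtain ⟨r', hr', hrz', hy'⟩ := hxy'
  obtain ⟨k, hk, hkz, hky⟩ := hL _ hy _ hy'
  have e1 : (r' * k * r⁻¹) x = x' := by
    rw [MulAut.mul_apply, MulAut.mul_apply, ← hrz,
      show r⁻¹ (r z) = z from r.symm_apply_apply z, hkz, hrz']
  have e2 : (r' * k * r⁻¹) y = y' := by
    rw [MulAut.mul_apply, MulAut.mul_apply, hky]
    exact r'.apply_symm_apply y'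
  have := S1_map (mul_mem (mul_mem hr' hk) (inv_mem hr)) hyx
  rwa [e1, e2] at this

/-- Members and the products of two in one class: impossible. -/
theorem members_plain_pairs (i1 : L1 ⊆ orb R z) (i2 : L2 ⊆ orb R z)
    (j1 : P1 ⊆ orb R z) (j2 : ∀ x ∈ P2, x ∉ orb R z)
    (hother : ∀ x ∈ orb R z, x = z ∨ x ∈ L1 ∨ x ∈ L2 ∨ x ∈ P1) : False := by
  have hnb : ∀ s ∈ orb R z, s ≠ z → z * s ∈ orb R z → s ∈ L1 ∨ s ∈ L2 := by
    intro s hs hsz hzs
    rcases hother s hs with e | e | e | e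
    · exact absurd e hsz
    · exact Or.inl e
    · exact Or.inr e
    · exact absurd hzs (j2 _ ((h.mem_P2 _).2 (by rwa [h.cancel])))
  -- neighbours of `x` are seen in one of the classes
  have pull : ∀ x y, x ∈ orb R z → y ∈ orb R z → y ≠ x → x * y ∈ orb R z →
      S1 R z L1 x y ∨ S1 R z L2 x y := by
    intro x y hx hy hne hxy
    obtain ⟨r, hr, hrz, -⟩ := h.back hx
    refine (hnb _ ((h.orb_map (inv_mem hr) y).2 hy)
      (fun e => hne (by rw [← h.apply_inv r y, e, hrz]))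
      ((h.orb_map hr _).1 (by rwa [map_mul, hrz, h.apply_inv]))).imp
      (fun e => ⟨r, hr, hrz, e⟩) fun e => ⟨r, hr, hrz, e⟩
  have sameL : ∀ s t, (s ∈ L1 ∧ t ∈ L1) ∨ (s ∈ L2 ∧ t ∈ L2) → s ≠ t → s * t ∈ orb R z := by
    intro s t hst hne
    refine j1 ((h.mem_P1 _).2 ?_)
    rcases hst with ⟨hs, ht⟩ | ⟨hs, ht⟩
    · exact ⟨s, hs, t, ht, hne, rfl⟩
    · refine ⟨_, (h.mem_L2 s).1 hs, _, (h.mem_L2 t).1 ht, fun e => hne (mul_left_cancel e), ?_⟩
      rw [(h.comm z s).eq, mul_assoc, h.cancel]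
  -- pairs in one class have their product in the orbit
  have same : ∀ L, (L = L1 ∨ L = L2) → ∀ x y y', S1 R z L x y → S1 R z L x y' → y ≠ y' →
      y * y' ∈ orb R z := by
    intro L hL x y y' hy hy' hne
    obtain ⟨r, hr, hrz, hs⟩ := hy
    have hne' : r⁻¹ y ≠ r⁻¹ y' := fun e => hne (r⁻¹.injective e)
    have h0 : r⁻¹ y * r⁻¹ y' ∈ orb R z := by
      refine sameL _ _ ?_ hne'
      rcases hL with rfl | rfl
      · exact Or.inl ⟨hs, h.S1_class hr hrz hy'⟩
      · exact Or.inr ⟨hs, h.S2_class hr hrz hy'⟩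
    rw [← map_mul] at h0
    exact (h.orb_map (inv_mem hr) _).1 h0
  -- across the classes only the third point of the line
  have cross : ∀ x y y', S1 R z L1 x y → S1 R z L2 x y' → y * y' ∈ orb R z → y' = x * y := by
    intro x y y' hy hy' hp
    obtain ⟨r, hr, hrz, hs⟩ := hy
    have ht := (h.mem_L2 _).1 (h.S2_class hr hrz hy')
    by_cases e : r⁻¹ y = z * r⁻¹ y'
    · have e2 := congrArg r e
      rw [map_mul, hrz, h.apply_inv, h.apply_inv] at e2
      rw [e2, ← mul_assoc, h.sq, one_mul]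
    · exfalso
      refine j2 (r⁻¹ y * r⁻¹ y') ((h.mem_P2 _).2 ((h.mem_P1 _).2 ⟨_, hs, _, ht, e, ?_⟩)) ?_
      · rw [← mul_assoc, (h.comm z _).eq, mul_assoc]
      · rw [← map_mul]; exact (h.orb_map (inv_mem hr) _).2 hp
  have hfin := Set.finite_of_ncard_ne_zero (show L1.ncard ≠ 0 by rw [h.card_L1]; norm_num)
  obtain ⟨a, b, ha, hb, hab⟩ :=
    (Set.one_lt_ncard_iff hfin).1 (show 1 < L1.ncard by rw [h.card_L1]; norm_num)
  have hL2 : ∀ u ∈ L1, z * u ∈ L2 := fun u hu => (h.mem_L2 _).2 (by rwa [h.cancel])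
  have hza : ∀ u ∈ L1, z ≠ u := fun u hu e => h.z_out.1 (e ▸ hu)
  -- from a member, `z` and the other members are seen in one class
  have near : ∀ u ∈ L1, ∀ v ∈ L1, u ≠ v → ∀ L, (L = L1 ∨ L = L2) → S1 R z L u z → S1 R z L u v := by
    intro u hu v hv huv L hL huz
    have hp := pull u v (i1 hu) (i1 hv) huv.symm (j1 ((h.mem_P1 _).2 ⟨u, hu, v, hv, huv, rfl⟩))
    have hzv : z * v ∈ orb R z := i2 (hL2 v hv)
    have hno : v ≠ u * z := fun e => Set.disjoint_left.1 h.dLL hv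
      (by rw [e, (h.comm u z).eq]; exact hL2 u hu)
    rcases hL with rfl | rfl
    · exact hp.resolve_right fun hv2 => hno (cross u z v huz hv2 hzv)
    · refine hp.resolve_left fun hv1 => ?_
      have e := cross u v z hv1 huz (by rw [(h.comm v z).eq]; exact hzv)
      exact h.z_out.2.2.1 ((h.mem_P1 z).2 ⟨u, hu, v, hv, huv, e⟩)
  have hSa : S1 R z L1 a z := by
    have hp := pull a z (i1 ha) h.z_mem (hza a ha) (by
      rw [(h.comm a z).eq]; exact i2 (hL2 a ha))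
    refine hp.resolve_right fun hz2 => ?_
    obtain ⟨k, hk, hkz, hka⟩ := h.tL1 a ha b hb
    have hz2b : S1 R z L2 b z := by
      have := S1_map hk hz2
      rwa [hkz, hka] at this
    have hab2 := near a ha b hb hab L2 (Or.inr rfl) hz2
    have hba2 := near b hb a ha hab.symm L2 (Or.inr rfl) hz2b
    have hza2 := S1_symm h.tL2 hab2 hba2 hz2
    exact h.S12 (h.S1_here ha) hza2
  have hSab := near a ha b hb hab L1 (Or.inl rfl) hSa
  have sym1 : ∀ {x y}, S1 R z L1 x y → S1 R z L1 y x := fun hxy =>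
    S1_symm h.tL1 (h.S1_here ha) hSa hxy
  -- products
  have hzaL := hL2 a ha
  have hab' : a * b ∈ P1 := (h.mem_P1 _).2 ⟨a, ha, b, hb, hab, rfl⟩
  have hzab : z * (a * b) ∉ orb R z := j2 _ ((h.mem_P2 _).2 (by rw [h.cancel]; exact hab'))
  have prod_ab : ∀ u ∈ L1, ∀ v ∈ L1, u ≠ v → u * v = a * b → S1 R z L1 u z →
      S1 R z L2 u (u * v) := by
    intro u hu v hv huv e huz
    have hne : u * v ≠ u := fun e' => h.one_out.1 (mul_eq_left.1 e' ▸ hv)
    have hp := pull u (u * v) (i1 hu) (j1 ((h.mem_P1 _).2 ⟨u, hu, v, hv, huv, rfl⟩)) hne (by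
      rw [← mul_assoc, h.sq, one_mul]; exact i1 hv)
    refine hp.resolve_left fun h1 => ?_
    refine hzab ?_
    rw [← e]
    exact same L1 (Or.inl rfl) u z (u * v) huz h1 fun e' => h.z_out.2.2.1 (e' ▸ e ▸ hab')
  have hSb : S1 R z L1 b z := sym1 (h.S1_here hb)
  -- from the other lift of `a`
  have hS2za : S1 R z L2 (z * a) z := by
    have hp := pull (z * a) z (i2 hzaL) h.z_mem
      (fun e => h.z_out.2.1 (e ▸ hzaL)) (by rw [(h.comm (z * a) z).eq, h.cancel]; exact i1 ha)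
    exact hp.resolve_left fun h1 => h.S12 (sym1 h1) (h.S1_here hzaL)
  have sym2 : ∀ {x y}, S1 R z L2 x y → S1 R z L2 y x := fun hxy =>
    S1_symm h.tL2 hS2za (h.S1_here hzaL) hxy
  -- from the product
  have hA2 : S1 R z L2 (a * b) a := sym2 (prod_ab a ha b hb hab rfl hSa)
  have hB2 : S1 R z L2 (a * b) b := by
    have := prod_ab b hb a ha hab.symm (h.comm b a).eq hSb
    rw [(h.comm b a).eq] at this
    exact sym2 this
  have hC2 : S1 R z L2 (a * b) (z * a) := by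
    have hp := pull (a * b) (z * a) (j1 hab') (i2 hzaL)
      (fun e => Set.disjoint_left.1 h.d21 (e ▸ hzaL) hab') (by
        rw [(h.comm z a).eq, mul_assoc, ← mul_assoc b a z, (h.comm b a).eq, mul_assoc a b z,
          ← mul_assoc a a, h.sq, one_mul, (h.comm b z).eq]
        exact i2 (hL2 b hb))
    refine hp.resolve_left fun h1 => ?_
    have e := cross (a * b) (z * a) a h1 hA2 (by rw [mul_assoc, h.sq, mul_one]; exact h.z_mem)
    refine Set.disjoint_left.1 h.dLL ha ((h.mem_L2 a).2 ?_)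
    have : z * a = b := by
      calc z * a = a * b * (a * b * (z * a)) := by rw [← mul_assoc, h.sq, one_mul]
        _ = a * b * a := by rw [← e]
        _ = b := by rw [(h.comm a b).eq, mul_assoc, h.sq, mul_one]
    exact this.symm ▸ hb
  refine hzab ?_
  have := same L2 (Or.inr rfl) (a * b) (z * a) b hC2 hB2
    fun e => Set.disjoint_left.1 h.dLL hb (e ▸ hzaL)
  rwa [mul_assoc] at this

section count

variable [Finite A]

/-- The joint stabiliser. -/
noncomputable def kk (R : Subgroup (MulAut A)) (x y : A) : ℕ :=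
  Nat.card ↥(MulAction.stabilizer ↥R x ⊓ MulAction.stabilizer ↥R y)

omit h in
lemma kk_map (g : ↥R) (x y : A) : kk R (g • x) (g • y) = kk R x y := by
  unfold kk
  have e : MulAction.stabilizer ↥R (g • x) ⊓ MulAction.stabilizer ↥R (g • y) =
      (MulAction.stabilizer ↥R x ⊓ MulAction.stabilizer ↥R y).map (MulAut.conj g).toMonoidHom := by
    rw [Subgroup.map_inf _ _ _ (MulAut.conj g).injective,
      MulAction.stabilizer_smul_eq_stabilizer_map_conj, MulAction.stabilizer_smul_eq_stabilizer_map_conj]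
  rw [e, Subgroup.card_map_of_injective (MulAut.conj g).injective]

lemma kk_of_orbit {S : Set A} (hS : Trans R z S)
    (hs : ∀ r ∈ R, r z = z → ∀ x, r x ∈ S ↔ x ∈ S) {y : A} (hy : y ∈ S) :
    S.ncard * kk R z y = Nat.card ↥(MulAction.stabilizer ↥R z) := by
  let H := MulAction.stabilizer ↥R z
  have horb : MulAction.orbit ↥H y = S := by
    ext x
    constructor
    · rintro ⟨k, rfl⟩
      exact (hs _ k.1.2 k.2 y).2 hy
    · intro hx
      obtain ⟨r, hr, hrz, hrx⟩ := hS y hy x hx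
      exact ⟨⟨⟨r, hr⟩, hrz⟩, hrx⟩
  have e : MulAction.stabilizer ↥H y = (MulAction.stabilizer ↥R y).subgroupOf H := rfl
  have e2 : Nat.card ↥(MulAction.stabilizer ↥H y) = kk R z y := by
    rw [e, ← Subgroup.inf_subgroupOf_left,
      Nat.card_congr (Subgroup.subgroupOfEquivOfLe inf_le_left).toEquiv]
    rfl
  rw [← e2, ← horb, ← Nat.card_coe_set_eq, ← Nat.card_prod,
    Nat.card_congr (MulAction.orbitProdStabilizerEquivGroup ↥H y)]

/-- Everything: impossible. -/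
theorem all_nonidentity (hall : ∀ x, x ≠ 1 → x ∈ orb R z) : False := by
  classical
  obtain ⟨s, hs⟩ : ∃ s, s = Nat.card ↥(MulAction.stabilizer ↥R z) := ⟨_, rfl⟩
  have hTc : (rest z L1 L2 P1 P2).ncard ≠ 22 := by
    intro hc
    have hcov : (Set.univ : Set A) ⊆ {1, z} ∪ L1 ∪ L2 ∪ P1 ∪ P2 ∪ rest z L1 L2 P1 P2 := fun x _ => by
      simp only [rest, Set.mem_union, Set.mem_insert_iff, Set.mem_singleton_iff, Set.mem_ofPred_eq]
      tauto
    have h1 := Set.ncard_le_ncard hcov (Set.toFinite _)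
    rw [Set.ncard_univ, h.card] at h1
    have h2 := Set.ncard_union_le ({1, z} ∪ L1 ∪ L2 ∪ P1 ∪ P2) (rest z L1 L2 P1 P2)
    have h3 := Set.ncard_union_le ({1, z} ∪ L1 ∪ L2 ∪ P1) P2
    have h4 := Set.ncard_union_le ({1, z} ∪ L1 ∪ L2) P1
    have h5 := Set.ncard_union_le ({1, z} ∪ L1) L2
    have h6 := Set.ncard_union_le {1, z} L1
    have h7 : ({1, z} : Set A).ncard ≤ 2 := (Set.ncard_insert_le _ _).trans (by simp)
    have := h.card_L1; have := h.card_L2; have := h.card_P1; have := h.card_P2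
    omega
  have hat : ∀ y, y ≠ 1 → y ≠ z → (22 * kk R z y = s ↔ y ∈ L1 ∪ L2) := by
    intro y hy1 hyz
    have hk : 0 < kk R z y := Nat.card_pos
    have fin : ∀ n, n * kk R z y = s → (22 * kk R z y = s ↔ n = 22) := fun n hn => by
      constructor
      · intro e; exact Nat.eq_of_mul_eq_mul_right hk (hn.trans e.symm)
      · rintro rfl; exact hn
    by_cases h1 : y ∈ L1
    · rw [fin 22 (by rw [hs, ← h.card_L1]; exact h.kk_of_orbit h.tL1 (fun r hr e => h.stab_iff hr e) h1)]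
      simp [h1]
    by_cases h2 : y ∈ L2
    · rw [fin 22 (by rw [hs, ← h.card_L2]; exact h.kk_of_orbit h.tL2 (fun r hr e => h.stab_L2 hr e) h2)]
      simp [h2]
    by_cases h3 : y ∈ P1
    · rw [fin 231 (by rw [hs, ← h.card_P1]; exact h.kk_of_orbit h.tP1 (fun r hr e => h.stab_P1 hr e) h3)]
      simp [h1, h2]
    by_cases h4 : y ∈ P2
    · rw [fin 231 (by rw [hs, ← h.card_P2]; exact h.kk_of_orbit h.tP2 (fun r hr e => h.stab_P2 hr e) h4)]
      simp [h1, h2]
    rw [fin _ (by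
      rw [hs]
      exact h.kk_of_orbit h.tT (fun r hr e => h.stab_T hr e)
        (show y ∈ rest z L1 L2 P1 P2 from ⟨hy1, hyz, h1, h2, h3, h4⟩))]
    simp [h1, h2, hTc]
  let E := {p : A × A // p.1 ≠ 1 ∧ p.2 ≠ 1 ∧ p.1 ≠ p.2 ∧ 22 * kk R p.1 p.2 = s}
  -- counting
  have hchoice : ∀ x : {x : A // x ≠ 1}, ∃ r : ↥R, r • z = (x : A) := fun x => by
    obtain ⟨r, hr, e⟩ := hall x x.2
    exact ⟨⟨r, hr⟩, e⟩
  choose rho hrho using hchoice
  have hE : Nat.card E = 2047 * 44 := by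
    have hmem : ∀ (g : ↥R) (y : A), (g • z ≠ 1 ∧ g • y ≠ 1 ∧ g • z ≠ g • y ∧
        22 * kk R (g • z) (g • y) = s) ↔ y ∈ L1 ∪ L2 := by
      intro g y
      have g1 : ∀ x : A, g • x = 1 ↔ x = 1 := fun x =>
        ⟨fun e => (g : MulAut A).injective (e.trans (map_one (g : MulAut A)).symm),
          fun e => e ▸ map_one (g : MulAut A)⟩
      rw [kk_map, Ne, g1, Ne, g1, (MulAction.injective g).ne_iff]
      constructor
      · rintro ⟨-, hy1, hne, e⟩
        exact (hat y hy1 hne.symm).1 e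
      · intro hy
        have hy1 : y ≠ 1 := fun e => (e ▸ hy).elim h.one_out.1 h.one_out.2.1
        have hyz : y ≠ z := fun e => (e ▸ hy).elim h.z_out.1 h.z_out.2.1
        exact ⟨h.z_ne, hy1, hyz.symm, (hat y hy1 hyz).2 hy⟩
    let e : E ≃ {x : A // x ≠ 1} × ↥(L1 ∪ L2) :=
      { toFun := fun p => (⟨p.1.1, p.2.1⟩, ⟨(rho ⟨p.1.1, p.2.1⟩)⁻¹ • p.1.2,
          (hmem (rho ⟨p.1.1, p.2.1⟩) _).1 (by
            rw [smul_inv_smul, hrho]; exact p.2)⟩)
        invFun := fun q => ⟨((q.1 : A), rho q.1 • (q.2 : A)), by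
          have := (hmem (rho q.1) q.2).2 q.2.2
          rwa [hrho] at this⟩
        left_inv := fun p => Subtype.ext (Prod.ext rfl (smul_inv_smul _ _))
        right_inv := fun q => Prod.ext rfl (Subtype.ext (inv_smul_smul _ _)) }
    rw [Nat.card_congr e, Nat.card_prod]
    congr 1
    · haveI := Fintype.ofFinite A
      rw [Nat.card_eq_fintype_card, Fintype.card_subtype_compl, Fintype.card_subtype_eq,
        ← Nat.card_eq_fintype_card, h.card]
      norm_num
    · rw [Nat.card_coe_set_eq, Set.ncard_union_eq h.dLL, h.card_L1, h.card_L2]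
  -- a free action of order three
  have hstep : ∀ p : E, p.1.2 ≠ 1 ∧ p.1.1 * p.1.2 ≠ 1 ∧ p.1.2 ≠ p.1.1 * p.1.2 ∧
      22 * kk R p.1.2 (p.1.1 * p.1.2) = s := by
    rintro ⟨⟨x, y⟩, hx, hy, hne, e⟩
    refine ⟨hy, fun e' => hne ((eq_inv_of_mul_eq_one_left e').trans (inv_eq_of_mul_eq_one_right (h.sq y))),
      fun e' => hx (mul_eq_right.1 e'.symm), ?_⟩
    have : kk R y (x * y) = kk R x y := by
      unfold kk
      refine Nat.card_congr (MulEquiv.subgroupCongr ?_).toEquiv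
      ext g
      simp only [Subgroup.mem_inf, MulAction.mem_stabilizer_iff]
      constructor
      · rintro ⟨g1, g2⟩
        refine ⟨?_, g1⟩
        have e1 : (g : MulAut A) (x * y) = x * y := g2
        rw [map_mul, show (g : MulAut A) y = y from g1] at e1
        exact mul_right_cancel e1
      · rintro ⟨g1, g2⟩
        refine ⟨g2, ?_⟩
        show (g : MulAut A) (x * y) = x * y
        rw [map_mul, show (g : MulAut A) x = x from g1, show (g : MulAut A) y = y from g2]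
    rwa [this]
  let f : E → E := fun p => ⟨(p.1.2, p.1.1 * p.1.2), hstep p⟩
  have hf : ∀ p, f (f (f p)) = p := by
    rintro ⟨⟨x, y⟩, hp⟩
    refine Subtype.ext (Prod.ext ?_ ?_)
    · show y * (x * y) = x
      rw [(h.comm x y).eq, ← mul_assoc, h.sq, one_mul]
    · show x * y * (y * (x * y)) = y
      rw [mul_assoc, ← mul_assoc y y, h.sq, one_mul, ← mul_assoc, h.sq, one_mul]
  let σ : Equiv.Perm E := ⟨f, fun p => f (f p), hf, hf⟩
  haveI := Fintype.ofFinite E
  haveI : Fact (Nat.Prime 3) := ⟨Nat.prime_three⟩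
  obtain ⟨p, hp⟩ := Equiv.Perm.exists_fixed_point_of_prime (p := 3) (n := 1) (σ := σ)
    (by rw [← Nat.card_eq_fintype_card, hE]; norm_num)
    (Equiv.ext fun p => by
      simp only [pow_succ, pow_zero, one_mul, Equiv.Perm.mul_apply, Equiv.Perm.one_apply]
      exact hf p)
  exact p.2.2.2.1 (congrArg (fun q : E => q.1.1) hp).symm

end count

end cases

set_option maxHeartbeats 800000 in
/-- The orbit of `z` has 23 elements. -/
theorem orb_card [Finite A] (hx : ∃ x ∈ orb R z, x ≠ z) : (orb R z).ncard = 23 := by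
  classical
  obtain ⟨T, hT⟩ : ∃ T, T = rest z L1 L2 P1 P2 := ⟨_, rfl⟩
  have hT1 : Disjoint L1 T := Set.disjoint_left.2 fun x e e' => (hT ▸ e').2.2.1 e
  have hT2 : Disjoint L2 T := Set.disjoint_left.2 fun x e e' => (hT ▸ e').2.2.2.1 e
  have hT3 : Disjoint P1 T := Set.disjoint_left.2 fun x e e' => (hT ▸ e').2.2.2.2.1 e
  have hT4 : Disjoint P2 T := Set.disjoint_left.2 fun x e e' => (hT ▸ e').2.2.2.2.2 e
  have hzT : z ∉ T := fun e => (hT ▸ e).2.1 rfl
  have h1T : (1 : A) ∉ T := fun e => (hT ▸ e).1 rfl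
  have hLL := h.dLL
  have h11 := h.d11
  have h12 := h.d12
  have h21 := h.d21
  have h22 := h.d22
  have hPP := h.dPP
  obtain ⟨zL1, zL2, zP1, zP2⟩ := h.z_out
  obtain ⟨oL1, oL2, oP1, oP2⟩ := h.one_out
  have hTc : T.ncard = 1540 := by
    have hu : {1, z} ∪ L1 ∪ L2 ∪ P1 ∪ P2 ∪ T = (Set.univ : Set A) := Set.eq_univ_of_forall fun x => by
      subst hT
      simp only [rest, Set.mem_union, Set.mem_insert_iff, Set.mem_singleton_iff, Set.mem_ofPred_eq]
      tauto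
    have h1 := congrArg Set.ncard hu
    rw [Set.ncard_univ, h.card, Set.ncard_union_eq ?_, Set.ncard_union_eq ?_, Set.ncard_union_eq ?_,
      Set.ncard_union_eq ?_, Set.ncard_union_eq ?_, Set.ncard_pair h.z_ne.symm, h.card_L1, h.card_L2,
      h.card_P1, h.card_P2] at h1
    · omega
    all_goals
      simp only [Set.disjoint_union_left, Set.disjoint_insert_left, Set.disjoint_singleton_left,
        h.dLL, h.d11, h.d12, h.d21, h.d22, h.dPP, hT1, hT2, hT3, hT4, zL1, zL2, zP1, zP2, oL1,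
        oL2, oP1, oP2, hzT, h1T, not_false_eq_true, and_self]
  obtain ⟨Δ, hΔ⟩ : ∃ Δ, Δ = orb R z := ⟨_, rfl⟩
  -- the orbit is `z` and some of the five orbits
  have hsplit : Δ.ncard = 1 + (L1 ∩ Δ).ncard + (L2 ∩ Δ).ncard + (P1 ∩ Δ).ncard + (P2 ∩ Δ).ncard +
      (T ∩ Δ).ncard := by
    have hu : {z} ∪ L1 ∩ Δ ∪ L2 ∩ Δ ∪ P1 ∩ Δ ∪ P2 ∩ Δ ∪ T ∩ Δ = Δ := by
      ext x
      have h1 : x ∈ Δ → x ≠ 1 := fun hx e => h.one_notMem (e ▸ hΔ ▸ hx)
      have h2 : z ∈ Δ := hΔ ▸ h.z_mem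
      subst hT
      simp only [rest, Set.mem_union, Set.mem_inter_iff, Set.mem_singleton_iff, Set.mem_ofPred_eq]
      constructor
      · rintro (((((rfl | e) | e) | e) | e) | e) <;> first | exact h2 | exact e.2
      · intro hx
        have := h1 hx
        tauto
    rw [← congrArg Set.ncard hu, Set.ncard_union_eq ?_, Set.ncard_union_eq ?_, Set.ncard_union_eq ?_,
      Set.ncard_union_eq ?_, Set.ncard_union_eq ?_, Set.ncard_singleton]
    all_goals
      simp only [Set.disjoint_union_left, Set.disjoint_singleton_left, Set.mem_inter_iff, zL1, zL2,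
        zP1, zP2, hzT, false_and, not_false_eq_true, true_and]
      repeat' constructor
      all_goals
        exact Disjoint.mono Set.inter_subset_left Set.inter_subset_left (by assumption)
  -- each orbit is inside or outside
  have dich : ∀ S, Trans R z S → ∀ n, S.ncard = n →
      (S ⊆ Δ ∧ (S ∩ Δ).ncard = n) ∨ ((∀ x ∈ S, x ∉ Δ) ∧ (S ∩ Δ).ncard = 0) := by
    intro S hS n hn
    rcases h.dichotomy hS with e | e
    · exact Or.inl ⟨hΔ ▸ e, by rw [Set.inter_eq_left.2 (hΔ ▸ e), hn]⟩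
    · refine Or.inr ⟨hΔ ▸ e, ?_⟩
      rw [Set.ncard_eq_zero (Set.toFinite _)]
      exact Set.eq_empty_iff_forall_notMem.2 fun x hx => e x hx.1 (hΔ ▸ hx.2)
  have hdvd : Δ.ncard ∣ Nat.card ↥R := by
    have e : Δ = MulAction.orbit ↥R z := by
      subst hΔ
      ext x
      exact ⟨fun ⟨r, hr, e⟩ => ⟨⟨r, hr⟩, e⟩, fun ⟨r, e⟩ => ⟨r.1, r.2, e⟩⟩
    rw [e, ← Nat.card_coe_set_eq,
      ← Nat.card_congr (MulAction.orbitProdStabilizerEquivGroup ↥R z), Nat.card_prod]
    exact dvd_mul_right _ _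
  have bad : ∀ p n, Δ.ncard = n → p ∣ n → p.Prime → p ≠ 2 →
      (∀ k ∈ Finset.Icc 1 11, ¬ p ∣ 2 ^ k - 1) → False := fun p n hn hd hp hp2 hk =>
    no_bad_prime h.card hp hp2 (fun k k1 k2 => hk k (Finset.mem_Icc.2 ⟨k1, k2⟩))
      ((hn ▸ hd).trans hdvd)
  have h254 : Δ.ncard = 254 → L1 ⊆ Δ ∨ L2 ⊆ Δ → False := by
    intro hc hor
    haveI : Fact (Nat.Prime 127) := ⟨by norm_num⟩
    obtain ⟨r, hr⟩ := exists_prime_orderOf_dvd_card' (G := ↥R) 127
      ((show 127 ∣ 254 by norm_num).trans (hc ▸ hdvd))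
    refine no_order_127 h.card h.comm h.sq (φ := (r : MulAut A))
      (by rw [Subgroup.orderOf_coe]; exact hr) (Δ := Δ) ?_ hc ?_
    · intro x hx k
      have hle : Subgroup.zpowers (r : MulAut A) ≤ R := Subgroup.zpowers_le.2 r.2
      exact hΔ ▸ (h.orb_map (hle k.2) x).2 (hΔ ▸ hx)
    · refine eq_top_iff.2 ?_
      rcases hor with e | e
      · exact h.gen1 ▸ Subgroup.closure_mono e
      · exact h.gen2 ▸ Subgroup.closure_mono e
  have b232 : Δ.ncard ≠ 232 := fun e =>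
    bad 29 _ e (by norm_num) (by norm_num) (by norm_num) (by decide)
  have b463 : Δ.ncard ≠ 463 := fun e =>
    bad 463 _ e (by norm_num) (by norm_num) (by norm_num) (by decide)
  have b1541 : Δ.ncard ≠ 1541 := fun e =>
    bad 67 _ e (by norm_num) (by norm_num) (by norm_num) (by decide)
  have b1772 : Δ.ncard ≠ 1772 := fun e =>
    bad 443 _ e (by norm_num) (by norm_num) (by norm_num) (by decide)
  have b2003 : Δ.ncard ≠ 2003 := fun e =>
    bad 2003 _ e (by norm_num) (by norm_num) (by norm_num) (by decide)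
  have b485 : Δ.ncard ≠ 485 := fun e =>
    bad 97 _ e (by norm_num) (by norm_num) (by norm_num) (by decide)
  have b1563 : Δ.ncard ≠ 1563 := fun e =>
    bad 521 _ e (by norm_num) (by norm_num) (by norm_num) (by decide)
  have b1794 : Δ.ncard ≠ 1794 := fun e =>
    bad 13 _ e (by norm_num) (by norm_num) (by norm_num) (by decide)
  have b507 : Δ.ncard ≠ 507 := fun e =>
    bad 13 _ e (by norm_num) (by norm_num) (by norm_num) (by decide)
  have b1585 : Δ.ncard ≠ 1585 := fun e =>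
    bad 317 _ e (by norm_num) (by norm_num) (by norm_num) (by decide)
  have b1816 : Δ.ncard ≠ 1816 := fun e =>
    bad 227 _ e (by norm_num) (by norm_num) (by norm_num) (by decide)
  have hbackL : ∀ w ∈ L1, z * w ∈ L2 := fun w hw => (h.mem_L2 _).2 (by rwa [h.cancel])
  have hbackL' : ∀ w ∈ L2, z * w ∈ L1 := fun w hw => (h.mem_L2 _).1 hw
  rcases dich L1 h.tL1 22 h.card_L1 with ⟨a1, c1⟩ | ⟨a1, c1⟩ <;>
  rcases dich L2 h.tL2 22 h.card_L2 with ⟨a2, c2⟩ | ⟨a2, c2⟩ <;>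
  rcases dich P1 h.tP1 231 h.card_P1 with ⟨a3, c3⟩ | ⟨a3, c3⟩ <;>
  rcases dich P2 h.tP2 231 h.card_P2 with ⟨a4, c4⟩ | ⟨a4, c4⟩ <;>
  rcases dich T (hT ▸ h.tT) 1540 hTc with ⟨a5, c5⟩ | ⟨a5, c5⟩ <;>
  rw [c1, c2, c3, c4, c5] at hsplit <;>
  norm_num at hsplit <;>
  first
  | exact hΔ ▸ hsplit
  | omega
  | exact (h254 hsplit (Or.inl a1)).elim
  | exact (h254 hsplit (Or.inr a2)).elim
  | (exfalso
     obtain ⟨x, hxo, hxz⟩ := hx
     have hx1 : x ≠ 1 := fun e => h.one_notMem (e ▸ hxo)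
     subst hΔ
     refine a5 x ?_ hxo
     subst hT
     exact ⟨hx1, hxz, fun e => a1 x e hxo, fun e => a2 x e hxo, fun e => a3 x e hxo,
       fun e => a4 x e hxo⟩)
  | (exfalso
     subst hΔ
     refine h.all_but_members h.gen1 hbackL a2 a1 ?_ oL1
     intro y hy hn
     by_contra e
     rcases eq_or_ne y z with rfl | hyz
     · exact hn h.z_mem
     subst hT
     exact hn (a5 ⟨hy, hyz, e, fun e => hn (a2 e), fun e => hn (a3 e), fun e => hn (a4 e)⟩))
  | (exfalso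
     subst hΔ
     refine h.all_but_members h.gen2 hbackL' a1 a2 ?_ oL2
     intro y hy hn
     by_contra e
     rcases eq_or_ne y z with rfl | hyz
     · exact hn h.z_mem
     subst hT
     exact hn (a5 ⟨hy, hyz, fun e => hn (a1 e), e, fun e => hn (a3 e), fun e => hn (a4 e)⟩))
  | (exfalso
     subst hΔ
     refine h.only_members a1 a2 a3 ?_
     intro y hy
     have hy1 : y ≠ 1 := fun e => h.one_notMem (e ▸ hy)
     by_contra hn
     simp only [not_or] at hn
     subst hT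
     refine a5 y ?_ hy
     exact ⟨hy1, hn.1, hn.2.1, hn.2.2, fun e => a3 y e hy, fun e => a4 y e hy⟩)
  | (exfalso
     subst hΔ
     refine h.members_cross_pairs a1 a2 a3 a4 ?_
     intro y hy
     have hy1 : y ≠ 1 := fun e => h.one_notMem (e ▸ hy)
     by_contra hn
     simp only [not_or] at hn
     subst hT
     refine a5 y ?_ hy
     exact ⟨hy1, hn.1, hn.2.1, hn.2.2.1, fun e => a3 y e hy, hn.2.2.2⟩)
  | (exfalso
     subst hΔ
     refine h.members_plain_pairs a1 a2 a3 a4 ?_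
     intro y hy
     have hy1 : y ≠ 1 := fun e => h.one_notMem (e ▸ hy)
     by_contra hn
     simp only [not_or] at hn
     subst hT
     refine a5 y ?_ hy
     exact ⟨hy1, hn.1, hn.2.1, hn.2.2.1, hn.2.2.2, fun e => a4 y e hy⟩)
  | (exfalso
     subst hΔ
     refine h.all_nonidentity ?_
     intro y hy
     rcases eq_or_ne y z with rfl | hyz
     · exact h.z_mem
     subst hT
     by_contra hn
     refine hn (a5 ?_)
     exact ⟨hy, hyz, fun e => hn (a1 e), fun e => hn (a2 e), fun e => hn (a3 e),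
       fun e => hn (a4 e)⟩)

end Setup

end Cfsg.Agent.H87.Fi23A
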