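import Mathlib

/-! A regular induced subgraph inside a strongly regular graph: the numbers of neighbours seen from
outside have non-negative variance. In the graph on 3510 points of a class of type M(22) this
forbids 715 points with 126 neighbours each among themselves. -/

set_option autoImplicit false

namespace Cfsg.Agent.H87.Fi23A

/-- The variance of the numbers of seen elements is not negative. -/
theorem variance_nonneg {V : Type*} [DecidableEq V] (S X : Finset V) (hXS : X ⊆ S) (r : V → V → Prop)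
    [DecidableRel r] {n K k l μ : ℕ} (hn : X.card = n)
    (hK : ∀ x ∈ X, (S.filter fun e => r e x).card = K)
    (hk : ∀ x ∈ X, (X.filter fun e => r e x).card = k)
    (hsymm : ∀ x ∈ X, ∀ y ∈ X, r x y → r y x) (hirr : ∀ x ∈ X, ¬ r x x)
    (hl : ∀ x ∈ X, ∀ y ∈ X, r x y → (S.filter fun e => r e x ∧ r e y).card = l)
    (hμ : ∀ x ∈ X, ∀ y ∈ X, x ≠ y → ¬ r x y → (S.filter fun e => r e x ∧ r e y).card = μ)
    (c : ℤ) :
    0 ≤ (n : ℤ) * (K + k * l + (n - 1 - k) * μ) - n * k * k - 2 * c * (n * (K - k))
      + c * c * (S.card - n) := by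
  classical
  have hms : ∀ e, ((X.filter fun x => r e x).card : ℤ) = ∑ x ∈ X, if r e x then (1 : ℤ) else 0 :=
    fun e => (Finset.sum_boole (fun x => r e x) X).symm
  set m : V → ℤ := fun e => ((X.filter fun x => r e x).card : ℤ) with hm
  have mX : ∀ e ∈ X, m e = (k : ℤ) := fun e he => by
    rw [hm]
    show ((X.filter fun x => r e x).card : ℤ) = k
    rw [← hk e he]
    congr 2
    ext x
    simp only [Finset.mem_filter, and_congr_right_iff]
    exact fun hx => ⟨fun h => hsymm e he x hx h, fun h => hsymm x hx e he h⟩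
  have s1 : ∑ e ∈ S, m e = (n : ℤ) * K := by
    simp only [hm, hms]
    rw [Finset.sum_comm, Finset.sum_congr rfl fun x hx => (by
      rw [Finset.sum_boole, hK x hx] : (∑ e ∈ S, if r e x then (1 : ℤ) else 0) = (K : ℤ))]
    simp [hn]
  have s2 : ∑ e ∈ S, m e * m e = (n : ℤ) * (K + k * l + (n - 1 - k) * μ) := by
    have h1 : ∀ e, m e * m e = ∑ x ∈ X, ∑ y ∈ X, if r e x ∧ r e y then (1 : ℤ) else 0 := fun e => by
      rw [hm]
      simp only [hms, Finset.sum_mul_sum]
      refine Finset.sum_congr rfl fun x _ => Finset.sum_congr rfl fun y _ => ?_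
      by_cases a : r e x <;> by_cases b : r e y <;> simp [a, b]
    simp only [h1]
    rw [Finset.sum_comm]
    have h2 : ∀ x ∈ X, (∑ e ∈ S, ∑ y ∈ X, if r e x ∧ r e y then (1 : ℤ) else 0) =
        K + k * l + (n - 1 - k) * μ := by
      intro x hx
      rw [Finset.sum_comm]
      simp only [Finset.sum_boole]
      rw [← Finset.add_sum_erase X (fun y => (((S.filter fun e => r e x ∧ r e y).card : ℕ) : ℤ)) hx,
        ← Finset.sum_filter_add_sum_filter_not (X.erase x) (fun y => r y x),
        Finset.sum_congr rfl (s₂ := (X.erase x).filter fun y => r y x) (g := fun _ => (l : ℤ))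
          fun y hy => ?_,
        Finset.sum_congr rfl (s₂ := (X.erase x).filter fun y => ¬ r y x) (g := fun _ => (μ : ℤ))
          fun y hy => ?_]
      · have e1 : ((X.erase x).filter fun y => r y x) = X.filter fun y => r y x := by
          ext y
          simp only [Finset.mem_filter, Finset.mem_erase]
          exact ⟨fun h => ⟨h.1.2, h.2⟩, fun h => ⟨⟨fun e => hirr x hx (e ▸ h.2), h.1⟩, h.2⟩⟩
        have e2 := Finset.card_filter_add_card_filter_not (s := X.erase x) (fun y => r y x)
        rw [e1, hk x hx, Finset.card_erase_of_mem hx, hn] at e2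
        rw [Finset.sum_const, Finset.sum_const, e1, hk x hx]
        simp only [and_self, hK x hx, nsmul_eq_mul]
        have hn1 : 1 ≤ n := by rw [← hn]; exact Finset.card_pos.2 ⟨x, hx⟩
        rw [show (((X.erase x).filter fun y => ¬ r y x).card : ℤ) = (n : ℤ) - 1 - k by omega]
        ring
      · simp only [Finset.mem_filter, Finset.mem_erase] at hy
        rw [hμ x hx y hy.1.2 (Ne.symm hy.1.1) fun h => hy.2 (hsymm x hx y hy.1.2 h)]
      · simp only [Finset.mem_filter, Finset.mem_erase] at hy
        rw [hl x hx y hy.1.2 (hsymm y hy.1.2 x hx hy.2)]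
    rw [Finset.sum_congr rfl h2]
    simp [hn]
  have t1 : ∑ e ∈ S \ X, m e = (n : ℤ) * (K - k) := by
    rw [← Finset.sum_sdiff hXS, Finset.sum_congr rfl mX, Finset.sum_const, hn, nsmul_eq_mul] at s1
    linarith
  have t2 : ∑ e ∈ S \ X, m e * m e =
      (n : ℤ) * (K + k * l + (n - 1 - k) * μ) - n * k * k := by
    rw [← Finset.sum_sdiff hXS,
      Finset.sum_congr rfl (s₂ := X) (g := fun _ => (k : ℤ) * k) fun e he => by rw [mX e he],
      Finset.sum_const, hn, nsmul_eq_mul] at s2
    linarith
  have t3 : ∑ e ∈ S \ X, (m e - c) * (m e - c) =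
      (n : ℤ) * (K + k * l + (n - 1 - k) * μ) - n * k * k - 2 * c * (n * (K - k))
      + c * c * (S.card - n) := by
    have hcard : (((S \ X).card : ℕ) : ℤ) = (S.card : ℤ) - n := by
      rw [Finset.card_sdiff_of_subset hXS, hn,
        Nat.cast_sub (hn ▸ Finset.card_le_card hXS)]
    rw [Finset.sum_congr rfl fun e _ => (by ring :
        (m e - c) * (m e - c) = m e * m e - 2 * c * m e + c * c),
      Finset.sum_add_distrib, Finset.sum_sub_distrib, ← Finset.mul_sum, Finset.sum_const,
      nsmul_eq_mul, t1, t2, hcard]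
    ring
  rw [← t3]
  exact Finset.sum_nonneg fun e _ => mul_self_nonneg _

/-- The bound for 715 points of valency 126 in the graph with parameters (3510, 693, 180, 126). -/
theorem variance_715 :
    ((715 : ℕ) : ℤ) * ((693 : ℕ) + (126 : ℕ) * (180 : ℕ) + (((715 : ℕ) : ℤ) - 1 - (126 : ℕ)) * (126 : ℕ))
      - (715 : ℕ) * (126 : ℕ) * (126 : ℕ) - 2 * 145 * ((715 : ℕ) * (((693 : ℕ) : ℤ) - (126 : ℕ)))
      + 145 * 145 * (((3510 : ℕ) : ℤ) - (715 : ℕ)) < 0 := by
  norm_num

end Cfsg.Agent.H87.Fi23A
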